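import Mathlib
import Cfsg.Prelude.Def_Quasithin
import Cfsg.Agent.Lib.LAE.Cores
import Cfsg.Agent.Lib.Comp.FStar
import Cfsg.Agent.Lib.Core.Fitting
import Cfsg.Agent.Lib.Dickson.MinSimple
import Cfsg.Agent.Lib.Transfer.Focal
import Cfsg.Agent.Lib.SolvStruct.Util
import Cfsg.Agent.Lib.PGroup.Omega
import Cfsg.Agent.Lib.SylTools.Rank

/-!
Perfect subnormal subgroups and the solvable radical.
-/

set_option autoImplicit false
set_option linter.unusedSectionVars false

namespace CfsgLib.QT1.CCb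

open Subgroup Cfsg CfsgLib.LAE CfsgLib.Comp
open scoped commutatorElement MatrixGroups

variable {G : Type*} [Group G]

theorem subn_of_le {N L : Subgroup G} (hL : L.IsSubnormal) (h : N ≤ L)
    (hn : L ≤ normalizer (N : Set G)) : N.IsSubnormal :=
  .step N L h hL (normal_subgroupOf_of_le hn)

theorem subn_commutator {K : Subgroup G} (hK : K.IsSubnormal) : (⁅K, K⁆ : Subgroup G).IsSubnormal :=
  subn_of_le hK (commutator_le_self _) (le_normalizer_commutator le_normalizer le_normalizer)

theorem map_perfect {X : Type*} [Group X] (f : G →* X) {K : Subgroup G} (hK : ⁅K, K⁆ = K) :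
    ⁅K.map f, K.map f⁆ = K.map f := by rw [← map_commutator, hK]

theorem solvable_of_commutator {K : Subgroup G} (h : Group.IsSolvable (⁅K, K⁆ : Subgroup G)) :
    Group.IsSolvable K := by
  have h1 : Group.IsSolvable (_root_.commutator K) := by
    have e := (_root_.commutator K).equivMapOfInjective K.subtype K.subtype_injective
    rw [map_subtype_commutator] at e
    exact Core.isSolvable_of_mulEquiv e.symm
  have h2 : Group.IsSolvable (Abelianization K) := inferInstance
  exact Group.isSolvable_of_ker_le_range (_root_.commutator K).subtype Abelianization.of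
    (by rw [Abelianization.ker_of, range_subtype])

/-- A perfect subgroup of `M S`, with `S` solvable normalizing `M`, lies in `M`. -/
theorem le_of_perfect {K M S : Subgroup G} (hK : ⁅K, K⁆ = K) (hn : S ≤ normalizer (M : Set G))
    (hS : Group.IsSolvable S) (h : K ≤ M ⊔ S) : K ≤ M := by
  set Y := M ⊔ S
  have hN : (M.subgroupOf Y).Normal := normal_subgroupOf_of_le (sup_le le_normalizer hn)
  let π := QuotientGroup.mk' (M.subgroupOf Y)
  have h1 : Group.IsSolvable (S.subgroupOf Y) :=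
    Core.isSolvable_of_mulEquiv (subgroupOfEquivOfLe (le_sup_right : S ≤ Y)).symm
  have h2 : (K.subgroupOf Y).map π = ⊥ := by
    refine eq_bot_of_perfect_of_le_solvable (H := (S.subgroupOf Y).map π)
      (map_perfect π (by rw [commutator_subgroupOf h h, hK])) ?_ (Core.isSolvable_map _ _)
    rintro _ ⟨y, -, rfl⟩
    obtain ⟨m, hm, s, hs, e⟩ := (Core.mem_sup_of_le_normalizer_left hn).1 y.2
    refine ⟨⟨s, mem_sup_right hs⟩, hs, ?_⟩
    have : y = ⟨m, mem_sup_left hm⟩ * ⟨s, mem_sup_right hs⟩ := Subtype.ext e.symm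
    have h4 : π ⟨m, mem_sup_left hm⟩ = 1 := (QuotientGroup.eq_one_iff (N := M.subgroupOf Y) _).2 hm
    rw [this, map_mul, h4, one_mul]
  intro k hk
  have h3 : π ⟨k, h hk⟩ = 1 := mem_bot.1 (h2 ▸ mem_map_of_mem π (show (⟨k, h hk⟩ : Y) ∈ K.subgroupOf Y from hk))
  exact (QuotientGroup.eq_one_iff (N := M.subgroupOf Y) _).1 h3

/-- A perfect subgroup of `L R`, with `L` subnormal and `R` solvable normal, lies in `L`. -/
theorem le_of_perfect_subn {K L R : Subgroup G} [R.Normal] (hK : ⁅K, K⁆ = K) (hL : L.IsSubnormal)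
    (hR : Group.IsSolvable R) (h : K ≤ L ⊔ R) : K ≤ L := by
  induction hL with
  | top => exact le_top
  | step A B hAB _ hN ih =>
    have h1 : K ≤ B := ih (h.trans (sup_le_sup_right hAB _))
    refine le_of_perfect (S := R ⊓ B) hK (inf_le_right.trans (le_normalizer_of_normal_subgroupOf hAB))
      (Core.isSolvable_of_le inf_le_left) ?_
    rw [← Core.sup_inf_assoc_of_normal_right hAB]
    exact le_inf h h1

variable [Finite G]

theorem eq_bot_of_fit (h : fittingSubgroup G = ⊥) {S : Subgroup G} (hS : S.IsSubnormal)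
    (hs : Group.IsSolvable S) : S = ⊥ := by
  by_contra hne
  have := fstar_normal (G := G)
  refine fstar_inf_ne_bot hS hne (le_bot_iff.1 (h ▸ le_fit_of_solvable_of_isSubnormal_of_le_fstar
    (this.isSubnormal.inf hS) (Core.isSolvable_of_le inf_le_right) inf_le_left))

theorem exists_rad (G : Type*) [Group G] [Finite G] :
    ∃ (R : Subgroup G) (_ : R.Normal), Group.IsSolvable R ∧ fittingSubgroup (G ⧸ R) = ⊥ := by
  obtain ⟨R, ⟨hR, hs⟩, hmax⟩ := (wellFounded_gt (α := Subgroup G)).has_min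
    {N | N.Normal ∧ Group.IsSolvable N} ⟨⊥, inferInstance, inferInstance⟩
  refine ⟨R, hR, hs, ?_⟩
  have h1 := fit_normal (G := G ⧸ R)
  have h2 := fit_solvable (G := G ⧸ R)
  have h3 : Group.IsSolvable (QuotientGroup.mk' R).ker := by rwa [QuotientGroup.ker_mk']
  have h4 : (fittingSubgroup (G ⧸ R)).comap (QuotientGroup.mk' R) = R := by
    by_contra hne
    exact hmax _ ⟨h1.comap _, Core.isSolvable_comap _ _⟩
      (lt_of_le_of_ne (QuotientGroup.le_comap_mk' R _) (Ne.symm hne))
  rw [← map_comap_eq_self_of_surjective (QuotientGroup.mk'_surjective R) (fittingSubgroup _), h4,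
    QuotientGroup.map_mk'_self]

theorem calC_solvable {L N : Subgroup G} (h : L ∈ calC G) (hN : N < L) (hn : N.IsSubnormal) :
    Group.IsSolvable N := by
  by_contra hs
  obtain ⟨K, ⟨h1, h2, h3⟩, hmin⟩ := (wellFounded_lt (α := Subgroup G)).has_min
    {K | K ≤ N ∧ K.IsSubnormal ∧ ¬ Group.IsSolvable K} ⟨N, le_rfl, hn, hs⟩
  refine h.2.2.2 K (h1.trans_lt hN) ⟨?_, ?_, h2⟩
  · rintro rfl
    exact h3 inferInstance
  · by_contra hne
    exact hmin _ ⟨(commutator_le_self _).trans h1, subn_commutator h2,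
      fun h4 => h3 (solvable_of_commutator h4)⟩ (lt_of_le_of_ne (commutator_le_self _) hne)

theorem calC_not_le {L S : Subgroup G} (h : L ∈ calC G) (hS : Group.IsSolvable S) : ¬ L ≤ S :=
  fun h1 => h.1 (eq_bot_of_perfect_of_le_solvable h.2.1 h1 hS)

theorem calC_eq_of_le {K L : Subgroup G} (hK : K ∈ calC G) (hL : L ∈ calC G) (h : K ≤ L) : K = L := by
  by_contra hne
  exact hL.2.2.2 K (lt_of_le_of_ne h hne) ⟨hK.1, hK.2.1, hK.2.2.1⟩

variable {X : Type*} [Group X] [Finite X] {f : G →* X}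

theorem calC_map_normal {L : Subgroup G} (h : L ∈ calC G) {N : Subgroup X} (hN : N ≤ L.map f)
    (hn : L.map f ≤ normalizer (N : Set X)) : N = L.map f ∨ Group.IsSolvable N := by
  have h1 : (L ⊓ N.comap f).map f = N := by
    refine le_antisymm (map_le_iff_le_comap.2 inf_le_right) fun y hy => ?_
    obtain ⟨x, hx, rfl⟩ := hN hy
    exact ⟨x, ⟨hx, hy⟩, rfl⟩
  by_cases h2 : L ⊓ N.comap f = L
  · exact Or.inl (by rw [← h1, h2])
  · have := calC_solvable h (lt_of_le_of_ne inf_le_left h2) (subn_of_le h.2.2.1 inf_le_left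
      (le_normalizer_inf le_normalizer ((map_le_iff_le_comap.1 hn).trans (le_normalizer_comap f))))
    exact Or.inr (h1 ▸ Core.isSolvable_map _ _)

theorem calC_comp (hf : Function.Surjective f) (hk : Group.IsSolvable f.ker)
    (hX : fittingSubgroup X = ⊥) {L : Subgroup G} (h : L ∈ calC G) : IsComponent (L.map f) := by
  refine ⟨h.2.2.1.map hf, qs_sub_iff.2 ⟨map_perfect f h.2.1,
    fun h1 => calC_not_le h hk ((Subgroup.map_eq_bot_iff _).1 h1), fun N hN hn => ?_⟩⟩
  refine (calC_map_normal h hN hn).imp id fun hs => ?_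
  rw [eq_bot_of_fit hX (subn_of_le (h.2.2.1.map hf) hN hn) hs]
  exact bot_le

theorem exists_calC (hf : Function.Surjective f) (hk : Group.IsSolvable f.ker)
    (hX : fittingSubgroup X = ⊥) {M : Subgroup X} (hM : IsComponent M) :
    ∃ K ∈ calC G, K.map f = M := by
  obtain ⟨K, ⟨h1, h2⟩, hmin⟩ := (wellFounded_lt (α := Subgroup G)).has_min
    {K | K.IsSubnormal ∧ K.map f = M} ⟨M.comap f, hM.1.comap f, map_comap_eq_self_of_surjective hf M⟩
  refine ⟨K, ⟨?_, ?_, h1, ?_⟩, h2⟩
  · rintro rfl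
    exact comp_ne_bot hM (by rw [← h2, Subgroup.map_bot])
  · by_contra hne
    exact hmin _ ⟨subn_commutator h1, by rw [map_commutator, h2, comp_perfect hM]⟩
      (lt_of_le_of_ne (commutator_le_self _) hne)
  · rintro K' hlt ⟨h3, h4, h5⟩
    have h6 : K'.map f ≤ M := h2 ▸ map_mono hlt.le
    rcases qs_sub_subnormal hM.2 h6 (h5.map hf).subgroupOf with h7 | h7
    · exact hmin _ ⟨h5, h7⟩ hlt
    · have h8 : K'.map f = ⊥ :=
        le_bot_iff.1 (hX ▸ (le_inf h6 h7).trans (comp_inf_centralizer_le_fit hM))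
      exact h3 (eq_bot_of_perfect_of_le_solvable h4 ((Subgroup.map_eq_bot_iff _).1 h8) hk)

theorem simple_of_perfect_pgl {p : ℕ} [hp : Fact p.Prime] (h2 : p ≠ 2)
    {S : Subgroup PGL(2, ZMod p)} (hS : ⁅S, S⁆ = S) (hne : S ≠ ⊥) : IsSimpleGroup S := by
  rcases Dickson.not_isSolvable_cases p (fun h => hne (eq_bot_of_perfect_of_solvable hS h)) with
    ⟨-, -, ⟨e⟩⟩ | ⟨K, k, h4, h | ⟨-, h⟩⟩
  · exact e.isSimpleGroup
  · exfalso
    obtain rfl := Dickson.subfield_eq_top_of_prime (by rw [Nat.card_zmod]; exact hp.out) K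
    rw [Dickson.pglSub_top] at h
    have h1 := Dickson.index_psl_odd (F := ZMod p) (by rw [Nat.card_zmod]; exact hp.out.odd_of_ne_two h2)
    have h3 : (Dickson.pslPGL (ZMod p)).range = ⊤ := by
      rw [eq_top_iff, ← h, ← hS, commutator_le]
      exact fun a _ b _ => Dickson.commutator_mem_psl a b
    rw [h3, index_top] at h1
    omega
  · obtain ⟨e⟩ := Dickson.pslSub_equiv K k
    have := Dickson.psl_isSimpleGroup h4
    rw [h]
    exact e.isSimpleGroup

theorem simple_of_rank (hG : _root_.commutator G = ⊤) [Nontrivial G] (h2 : pCore 2 G = ⊥)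
    (hr : ∀ p : ℕ, p.Prime → p ≠ 2 → PRankLE p 1 G)
    (hs : ∀ N : Subgroup G, N.Normal → N = ⊤ ∨ Group.IsSolvable N) : IsSimpleGroup G := by
  have hF : fittingSubgroup G = ⊥ := Core.fittingSubgroup_eq_bot_iff.2 fun p hp => by
    by_cases hp2 : p = 2
    · rw [hp2, h2]
    have : Fact p.Prime := ⟨hp⟩
    obtain ⟨P⟩ : Nonempty (Sylow p G) := inferInstance
    have hc : IsCyclic P := by
      by_contra hc
      obtain ⟨A, -, hA, hAc⟩ := PGroup.exists_normal_rank_two hp2 P.isPGroup' hc
      have h1 := SylTools.pRankLE_subgroup (hr p hp hp2) P A hA.1 hA.2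
      rw [hAc] at h1
      have := (Nat.pow_le_pow_iff_right hp.one_lt).1 h1
      omega
    have h3 : IsCyclic (pCore p G) := isCyclic_of_le (Core.pCore_le_sylow P)
    have h4 := SolvStruct.commutator_le_centralizer_of_cyclic (pCore p G)
    have h5 := Transfer.inf_commutator_inf_center_le_of_hall P.card_coprime_index
    rw [commutator_self_eq_bot_iff.2 (@IsCyclic.isMulCommutative _ _ hc), hG] at h5
    rw [hG] at h4
    refine le_bot_iff.1 (le_trans (le_inf (le_inf (Core.pCore_le_sylow P) le_top) fun x hx => ?_) h5)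
    exact mem_center_iff.2 fun g => (h4 (mem_top g) x hx).symm
  exact ⟨fun N hN => (hs N hN).symm.imp (eq_bot_of_fit hF hN.isSubnormal) id⟩

end CfsgLib.QT1.CCb
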