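import Cfsg.Agent.Lib.QT1.WrA

/-!
# Computations in `S₄ ≀ Z₂`
-/

set_option autoImplicit false
set_option Elab.async false
set_option linter.unusedSectionVars false
set_option synthInstance.maxSize 100000
set_option maxRecDepth 100000

namespace CfsgLib.QT1.Wr

open Subgroup Cfsg CfsgLib.W2 Function TG

noncomputable section

instance (m : ℕ) (P : TM → Prop) [DecidablePred P] [h : Fact (m < 64)] :
    Decidable (∀ x, In m x → P x) :=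
  decidable_of_iff (∀ x, InS x → In m x → P x) ⟨fun a x hx => a x
    (lt_of_le_of_lt (Nat.left_le_or.trans hx.le) h.out) hx, fun a x _ hx => a x hx⟩

instance (i : Fin 4) : Fact (msk i < 64) := ⟨by revert i; decide +kernel⟩
instance : Fact (5 < 64) := ⟨by omega⟩
instance : Fact (3 < 64) := ⟨by omega⟩

def T0 : Subgroup TM := sub InT (by decide +kernel)
def S0 : Subgroup TM := sub InS (by decide +kernel)
def E0 (i : Fin 4) : Subgroup TM := sub (InE i) (by revert i; decide +kernel)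
def Z0 : Subgroup TM := sub InZ (by decide +kernel)
def A1 : Subgroup TM := sub (In 3) (by decide +kernel)
/-- a subgroup of index two in `T` -/
abbrev InQ (x : TM) : Prop := InT x ∧ bit 0x69 (x.v / 16) = true

instance (P : TM → Prop) [DecidablePred P] : Decidable (∀ x, InQ x → P x) :=
  decidable_of_iff (∀ x, InT x → InQ x → P x) ⟨fun a x hx => a x hx.1 hx, fun a x _ hx => a x hx⟩

def Q0 : Subgroup TM := sub InQ (by decide +kernel)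
/-- conjugacy in the table group -/
abbrev Mc (x y : TM) : Prop := ∃ m, y = m * x * m⁻¹

theorem card_T : Nat.card T0 = 2 ^ 7 := (card_sub _ _).trans (by decide +kernel)
theorem card_Q : Nat.card Q0 = 64 := (card_sub _ _).trans (by decide +kernel)
theorem cnt_E : ∀ i, cnt (InE i) = 16 := by decide +kernel
theorem card_E (i : Fin 4) : Nat.card (E0 i) = 16 := (card_sub _ _).trans (cnt_E i)
theorem S_T : ∀ x, InS x → InT x := by decide +kernel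
theorem E_S : ∀ i x, InE i x → InS x ∧ x * x = 1 := by decide +kernel
theorem E_comm : ∀ i x, InE i x → ∀ y, InE i y → x * y = y * x := by decide +kernel
theorem E_conj : ∀ i x, InE i x → ∀ s, InS s → InE i (s * x * s⁻¹) := by decide +kernel
theorem S_conj : ∀ g ∈ [a1, b1, t], ∀ s, InS s → InS (g * s * g⁻¹) := by decide +kernel
theorem T_sp : ∀ x, InT x → bit (sp [a1, b1, t] 8) x.v = true := by decide +kernel
theorem A_conj : ∀ g ∈ [a1, b1, t, y1], ∀ s, InE 0 s → InE 0 (g * s * g⁻¹) := by decide +kernel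
theorem Z_conj : ∀ x, InZ x → ∀ s, InT s → InZ (s * x * s⁻¹) := by decide +kernel
theorem cnt_out : ∀ u, InT u → ¬ InS u → u * u = 1 →
    cnt (fun r => InT r ∧ r * r = 1 ∧ r * u = u * r) < 16 := by decide +kernel
theorem typ : ∀ u, InS u → u * u = 1 → ∀ v, InS v → v * v = 1 → u * v = v * u →
    (In 47 u ∨ In 61 v) ∧ (In 31 u ∨ In 55 v) := by decide +kernel
theorem typ' : ∀ u, InS u → (In 47 u → In 31 u → InE 0 u) ∧ (In 61 u → In 55 u → InE 1 u) ∧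
    (In 47 u → In 55 u → InE 2 u) ∧ (In 61 u → In 31 u → InE 3 u) := by decide +kernel
theorem S_AB : ∀ x, InS x → ∃ a, InE 0 a ∧ InE 1 (a⁻¹ * x) := by decide +kernel
theorem E_ncomm : ∀ i j, i ≠ j → ¬ ∀ u, InE i u → ∀ v, InE j v → u * v = v * u := by
  decide +kernel
theorem npar : ∀ i j : Fin 4, ¬ (i.1 + j.1 = 1 ∨ i.1 + j.1 = 5) →
    ¬ ∀ u, InE i u → InE j u → ∀ s, InS s → u * s = s * u := by decide +kernel
theorem par : ∀ i j : Fin 4, (i.1 + j.1 = 1 ∨ i.1 + j.1 = 5) →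
    ∀ u, InE i u → InE j u → ∀ s, InS s → u * s = s * u := by decide +kernel
theorem four : ∀ a b c d : Fin 4, Injective ![a, b, c, d] → (∀ i j : Fin 4,
    (![a, b, c, d] i).1 + (![a, b, c, d] j).1 = 1 ∨ (![a, b, c, d] i).1 + (![a, b, c, d] j).1 = 5 →
      i.1 + j.1 = 1 ∨ i.1 + j.1 = 5) →
    ![a, b, c, d] (![a, b, c, d] (![a, b, c, d] (![a, b, c, d] 0))) = 0 := by decide +kernel
theorem nS : ∀ m : TM, InT (m * b1 * m⁻¹) → InT (m * b2 * m⁻¹) → InT m := by decide +kernel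
theorem t_z : ∀ s, InT s → s * z * s⁻¹ = z ∧ s * z1 * s⁻¹ ≠ z ∧ s * (b1 * b2) * s⁻¹ ≠ b1 ∧
    (s * z1 * s⁻¹ = z1 → InS s) ∧ (s * z1 * s⁻¹ = z2 → s * b1 * s⁻¹ ≠ z1 * a2) := by decide +kernel
theorem S_z : ∀ s, InS s → s * z1 * s⁻¹ = z1 ∧ s * z2 * s⁻¹ = z2 := by decide +kernel
theorem S_comm : ∀ s, InS s → ∀ x, InS x → InZ (x⁻¹ * (s * x * s⁻¹)) ∧ InZ (x * s * (x * s) * (x * s * (x * s))) ∧
    (x * x = 1 → s * s = 1 → InZ (x * s * (x * s))) := by decide +kernel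
theorem wcl : ∀ s, InT s → ∀ i j, (∀ x, InE i x → InE j (s * x * s⁻¹)) →
    i = j ∨ (2 ≤ i ∧ 2 ≤ j) := by decide +kernel
theorem t_E : ∀ i x, InE i x → InE (![0, 1, 3, 2] i) (t * x * t⁻¹) := by decide +kernel
theorem inZ : ∀ x, InZ x ↔ x = 1 ∨ x = z1 ∨ x = z2 ∨ x = z := by decide +kernel
theorem Q_cls : ∀ x, InQ x → x * x = 1 → x ≠ 1 → Mc x z1 ∨ Mc x z ∨ Mc x (b1 * b2) := by
  decide +kernel
theorem B_cls : ∀ x, InE 1 x → InZ x ∨ Mc x b1 ∨ Mc x (b1 * z2) ∨ Mc x (b1 * b2) := by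
  decide +kernel
theorem D_cls : ∀ x, InS x → x * x = 1 → x ≠ 1 → (InD x ∧ (Mc x z1 ∨ Mc x b1)) ∨
    (¬ InD x ∧ (Mc x z ∨ Mc x (b1 * z2) ∨ Mc x (b1 * b2))) := by decide +kernel
theorem C_cls : ∀ x, InE 2 x → InD x ∨ Mc x z ∨ Mc x (b1 * z2) := by decide +kernel
theorem cen_E : ∀ u ∈ [b1, b1 * z2], ∀ x, InE 1 x ∨ InE 3 x → x * u = u * x := by decide +kernel
theorem cen_E' : ∀ x, InE 1 x ∨ InE 2 x → x * (z1 * b2) = z1 * b2 * x := by decide +kernel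

/-- five elements of `B₁A₂` -/
def pp (i : Fin 5) : TM := o (tab1 5 31 0x56a630 i)
def mg (k : Fin 12) : TM := o (tab1 11 2047 0x344c8811302304008d0320040c00c0000 k)
def sg (k : Fin 12) (i : Fin 5) : Fin 5 :=
  ⟨tab2 3 7 5 0x71029c06260a8c16a031a05c4427088990a321a844688 k i % 5, Nat.mod_lt _ (by omega)⟩

theorem pp_eq : pp 0 = b1 ∧ pp 4 = z ∧ pp 0 * pp 1 = z1 ∧ pp 2 * pp 3 = z2 ∧ pp 2 = z1 * a2 ∧
    Injective pp ∧ ∀ i, InE 3 (pp i) ∧ (Mc (pp i) z ∨ Mc (pp i) b1) := by decide +kernel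
theorem mg_pp : ∀ k i, pp (sg k i) = mg k * pp i * (mg k)⁻¹ := by decide +kernel
theorem C'_cls : ∀ x, InE 3 x → x = 1 ∨ (∃ i, x = pp i) ∨ Mc x z1 ∨ Mc x (b1 * z2) := by
  decide +kernel
theorem five1 : ∀ b c d e : Fin 5, Injective ![4, b, c, d, e] → 2 ≤ b ∨ ∃ k,
    2 ≤ ![4, b, c, d, e] (sg k 4) ∧ 2 ≤ ![4, b, c, d, e] (sg k b) := by decide +kernel
theorem five2 : ∀ a b : Fin 5, 2 ≤ a → 2 ≤ b → ∀ c d e, Injective ![a, b, c, d, e] → ∃ k k',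
    sg k (![a, b, c, d, e] (sg k' 4)) = 4 ∧ sg k (![a, b, c, d, e] (sg k' 0)) = 2 ∧
      sg k (![a, b, c, d, e] (sg k' 1)) = 3 := by decide +kernel

theorem tz1 : ∀ u, InS u → u * u = 1 → ¬ InD u → InD (z1 * u) → ∀ v, InS v → v * v = 1 → ¬ InD v →
    InD (z1 * v) → InD (u * v * (u * v)) := by decide +kernel
theorem tz : ∀ u, InT u → u * u = 1 → ¬ InD u → ¬ InD (z * u) → ∀ v, InT v → v * v = 1 → ¬ InD v →
    ¬ InD (z * v) → u * v * (u * v) ≠ z → u * v * (u * v) * (u * v * (u * v)) = 1 → ¬ InD (u * v * (u * v)) → ¬ InD (z * (u * v * (u * v))) →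
    ¬ InD (u * (u * v * (u * v))) → ¬ InD (z * (u * (u * v * (u * v)))) →
    ¬ InD (v * (u * v * (u * v))) → InD (z * (v * (u * v * (u * v)))) := by decide +kernel
/-- the involutions of the diagonal dihedral group -/
theorem diag : ∀ x ∈ [a1 * a2, b1 * b2, z, a1 * a2 * z, b1 * b2 * z], InT x ∧ x * t = t * x ∧
    x * x = 1 ∧ x ≠ 1 ∧ t * x ≠ 1 ∧ (Mc x z ∨ Mc x (b1 * b2)) ∧ Mc (t * x) t := by decide +kernel
theorem diag' : a1 * a2 * (b1 * b2) * (a1 * a2 * (b1 * b2)) = z ∧ z ≠ t ∧ t * t = 1 ∧ t ≠ 1 ∧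
    ¬ InQ t ∧ ¬ InQ b1 ∧ InT t ∧ InT b1 := by decide +kernel
theorem D_S : ∀ x, InD x → InS x := by decide +kernel

theorem CB_sq : ∀ u, InE 2 u → ∀ v, InE 1 v → u * v * (u * v) = 1 ∨ u * v * (u * v) = z1 := by
  decide +kernel
theorem C_a : ∀ u, InE 2 u → InD u → u ≠ 1 → (InD (u * z1) → u ≠ z1 → u = a1 ∨ b1 * u * b1⁻¹ = a1) ∧
    (InD (u * z2) → u ≠ z2 → b1 * u * b1⁻¹ = u ∧ InE 1 u ∧ (u = b2 ∨ u = b2 * z2)) := by
  decide +kernel
theorem ord3 : ∀ s, InS s → s * y1 * (s * y1) * (s * y1) = 1 →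
    ∃ a, In 3 a ∧ a⁻¹ * (s * y1) * a⁻¹⁻¹ = y1 := by decide +kernel
theorem A1_fix : ∀ a, In 3 a → InS a⁻¹ ∧ a⁻¹ * a1 * a⁻¹⁻¹ = a1 := by decide +kernel
/-- the six conjugators -/
def ms (k : Fin 6) : TM := o (tab1 11 2047 0x18630030860004000 k)
def ww (x : TM) : Option (Fin 6) → TM
  | none => b1
  | some k => ms k * x * (ms k)⁻¹
theorem good : ∀ x, InE 1 x → x * a1 ≠ a1 * x → Mc x (b1 * z2) ∨ Mc (x * z2) (b1 * z2) ∨
    (Injective (ww x) ∧ (∀ k, ww x k * b1 = b1 * ww x k) ∧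
      y2 * x * y2⁻¹ * x ≠ x * (y2 * x * y2⁻¹)) := by decide +kernel
/-- centralizes `A₁⟨y₁⟩` -/
abbrev InL (x : TM) : Prop := x * z1 * x⁻¹ = z1 ∧ x * a1 * x⁻¹ = a1 ∧ x * y1 * x⁻¹ = y1
theorem inL : InL a2 ∧ InL b2 ∧ InL y2 ∧ (∀ k, InL (ms k)) ∧ ¬ InL y1 := by decide +kernel
theorem D2_eq : ∀ s, InS s → InL s → s * b1 = b1 * s ∧
    ∃ i : Fin 4, s = (a2 * b2) ^ i.1 ∨ s = (a2 * b2) ^ i.1 * a2 := by decide +kernel
theorem rel : (a2 * b2) ^ 2 = z2 ∧ z2 ≠ 1 ∧ (a2 * b2) ^ 4 = 1 ∧ a2 * a2 = 1 ∧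
    a2 * (a2 * b2) * a2⁻¹ = (a2 * b2)⁻¹ ∧ a2 * (a2 * b2) ≠ a2 * b2 * a2 ∧ z2 = y2 * a2 * y2⁻¹ ∧
    y2 ^ 3 = 1 ∧ y2 ≠ 1 ∧ y2 * b1 = b1 * y2 ∧ y1 ^ 3 = 1 ∧ a2 * z2 = z2 * a2 := by decide +kernel
theorem y1_A1 : ∀ a, In 3 a → In 3 (y1 * a * y1⁻¹) ∧ (a = 1 ∨ a = z1 ∨ a = a1 ∨ a = z1 * a1) := by
  decide +kernel

end

end CfsgLib.QT1.Wr
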