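import Cfsg.Agent.Lib.QT1.WrB
import Cfsg.Agent.Lib.LAE.CharP
import Cfsg.Agent.Lib.Transfer.Cocycle
import Cfsg.Agent.Lib.Transfer.Focal

/-!
# A maximal 2-local subgroup `S₄ ≀ Z₂`: weak closure and centralizers
-/

set_option autoImplicit false
set_option linter.unusedSectionVars false

namespace CfsgLib.QT1.Wr

open Subgroup Cfsg CfsgLib.W2 CfsgLib.LAE Function TG
open scoped commutatorElement

local instance factTwoWr : Fact (Nat.Prime 2) := ⟨Nat.prime_two⟩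

variable {G : Type*} [Group G] {φ : TM →* G} {g k n : G} {p q p' q' x y u : TM}

/-- conjugation by `g` maps `φ p` to `φ q` -/
def Cm (φ : TM →* G) (g : G) (p q : TM) : Prop := φ q = g * φ p * g⁻¹

theorem Cm.mul (h : Cm φ g p q) (h' : Cm φ g p' q') : Cm φ g (p * p') (q * q') := by
  unfold Cm at *; rw [map_mul, map_mul, h, h']; group

theorem Cm.inv (h : Cm φ g p q) : Cm φ g p⁻¹ q⁻¹ := by
  unfold Cm at *; rw [map_inv, map_inv, h]; group

theorem Cm.one : Cm φ g 1 1 := by simp [Cm]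

theorem Cm.symm (h : Cm φ g p q) : Cm φ g⁻¹ q p := by
  unfold Cm at *; rw [h]; group

theorem Cm.trans (h : Cm φ g p q) (h' : Cm φ k q x) : Cm φ (k * g) p x := by
  unfold Cm at *; rw [h', h]; group

theorem Cm.self (m p : TM) : Cm φ (φ m) p (m * p * m⁻¹) := by simp [Cm]

theorem Cm.of_eq {m : TM} (h : q = m * p * m⁻¹) : Cm φ (φ m) p q := h ▸ Cm.self m p

theorem cm_fix : Cm φ g p p ↔ g ∈ centralizer ({φ p} : Set G) := by
  rw [mem_centralizer_singleton_iff, Cm, eq_mul_inv_iff_mul_eq, eq_comm]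

theorem Cm.cnj (e : Cm φ g p q) (e' : Cm φ g x y) (h : Cm φ k p x) : Cm φ (g * k * g⁻¹) q y := by
  simpa only [mul_assoc] using (e.symm.trans h).trans e'

/-- conjugacy in `G` -/
def Cj (φ : TM →* G) (p q : TM) : Prop := ∃ g, Cm φ g p q

theorem Cj.symm (h : Cj φ p q) : Cj φ q p := let ⟨_, e⟩ := h; ⟨_, e.symm⟩
theorem Cj.trans (h : Cj φ p q) (h' : Cj φ q x) : Cj φ p x :=
  let ⟨_, e⟩ := h; let ⟨_, e'⟩ := h'; ⟨_, e.trans e'⟩
theorem Cm.cj (h : Cm φ g p q) : Cj φ p q := ⟨g, h⟩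
theorem Mc.cj (h : Mc p q) : Cj φ p q := let ⟨_, e⟩ := h; ⟨_, .of_eq e⟩

/-- conjugation by `g` maps the elements with `P` to elements with `Q` -/
def Mp (φ : TM →* G) (g : G) (P Q : TM → Prop) : Prop := ∀ x, P x → ∃ y, Q y ∧ Cm φ g x y

variable {P Q R : TM → Prop} {i j : Fin 4}

theorem Mp.trans (h : Mp φ g P Q) (h' : Mp φ k Q R) : Mp φ (k * g) P R := fun x hx =>
  let ⟨y, h1, h2⟩ := h x hx; let ⟨w, h3, h4⟩ := h' y h1; ⟨w, h3, h2.trans h4⟩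

theorem Mp.self {m : TM} (h : ∀ x, P x → Q (m * x * m⁻¹)) : Mp φ (φ m) P Q := fun x hx =>
  ⟨_, h x hx, .self m x⟩

theorem mp_iff {A B : Subgroup TM} : conjS g (A.map φ) ≤ B.map φ ↔ Mp φ g (· ∈ A) (· ∈ B) := by
  rw [conjS_le_iff_forall]
  exact ⟨fun h x hx => h _ ⟨x, hx, rfl⟩, fun h _ ⟨x, hx, e⟩ => e ▸ h x hx⟩

/-- the elements normalizing `Z` and the coset `y Z` -/
def stb (Z : Subgroup G) (y : G) : Subgroup G where
  carrier := {c | c ∈ normalizer (Z : Set G) ∧ y⁻¹ * (c * y * c⁻¹) ∈ Z}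
  one_mem' := ⟨one_mem _, by simp⟩
  mul_mem' := fun {c d} hc hd => ⟨mul_mem hc.1 hd.1, by
    convert mul_mem hc.2 (conj_mem_of_mem_normalizer hc.1 hd.2) using 1; group⟩
  inv_mem' := fun {c} hc => ⟨inv_mem hc.1, by
    convert conj_inv_mem_of_mem_normalizer hc.1 (inv_mem hc.2) using 1; group⟩

structure Hyp (φ : TM →* G) : Prop where
  inj : Injective φ
  syl : IsSylowIn 2 (T0.map φ) ⊤
  nA : normalizer ((E0 0).map φ : Set G) ≤ φ.range
  chr : IsCharP 2 (normalizer (Z0.map φ : Set G))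
  n2 : ∀ M : Subgroup G, M.index ≠ 2
  qt : PRankLE 3 2 (normalizer (A1.map φ : Set G))

variable [Finite G]

theorem Mp.norm {A : Subgroup TM} (h : Mp φ g (· ∈ A) (· ∈ A)) :
    g ∈ normalizer (A.map φ : Set G) := mem_normalizer_of_conjS_le (mp_iff.2 h)

theorem mp_of_norm {A : Subgroup TM} (h : g ∈ normalizer (A.map φ : Set G)) :
    Mp φ g (· ∈ A) (· ∈ A) := mp_iff.1 (mem_normalizer_iff_conjS.1 h).le

theorem S_le_T : S0.map φ ≤ T0.map φ := map_mono S_T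

theorem T_le {X : Subgroup G} (h : ∀ g ∈ [a1, b1, t], φ g ∈ X) : T0.map φ ≤ X :=
  map_le_iff_le_comap.2 fun x hx => map_mem_of_sp φ h (T_sp x hx)

namespace Hyp

variable (h : Hyp φ)
include h

theorem eq_iff (e : Cm φ g p q) (e' : Cm φ g p' q') : q = q' ↔ p = p' := by
  unfold Cm at *
  rw [← h.inj.eq_iff, e, e', mul_left_inj, mul_right_inj, h.inj.eq_iff]

theorem sq (e : Cm φ g p q) : q * q = 1 ↔ p * p = 1 := h.eq_iff (e.mul e) .one

theorem ne_one (e : Cm φ g p q) : q = 1 ↔ p = 1 := h.eq_iff e .one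

theorem comm (e : Cm φ g p q) (e' : Cm φ g p' q') : q * q' = q' * q ↔ p * p' = p' * p :=
  h.eq_iff (e.mul e') (e'.mul e)

theorem eq_of {m : TM} (e : Cm φ (φ m) p q) : m * p * m⁻¹ = q := (h.eq_iff (.self m p) e).2 rfl

theorem cnt_le [DecidablePred P] [DecidablePred Q] (e : Mp φ g P Q) : cnt P ≤ cnt Q := by
  choose c h1 h2 using e
  rw [← card_subtype, ← card_subtype]
  exact Nat.card_le_card_of_injective (fun x : {p // P p} => (⟨c x x.2, h1 x x.2⟩ : {r // Q r}))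
    fun x y e => Subtype.ext ((h.eq_iff (h2 x x.2) (h2 y y.2)).1 (congrArg Subtype.val e))

theorem pS : IsPGroup 2 (S0.map φ) := h.syl.isPGroup.to_le S_le_T

theorem img_E (e : Mp φ g (InE i) InT) : ∃ j, Mp φ g (InE i) (InE j) := by
  choose c h1 h2 using e
  have h3 : ∀ x hx, c x hx * c x hx = 1 := fun x hx => (h.sq (h2 x hx)).2 (E_S i x hx).2
  have h4 : ∀ x hx y hy, c x hx * c y hy = c y hy * c x hx := fun x hx y hy =>
    (h.comm (h2 x hx) (h2 y hy)).2 (E_comm i x hx y hy)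
  have h5 : ∀ x hx, InS (c x hx) := fun x hx => by
    by_contra h6
    exact (cnt_out _ (h1 x hx) h6 (h3 x hx)).not_ge ((cnt_E i).ge.trans (h.cnt_le fun y hy =>
      ⟨c y hy, ⟨h1 y hy, h3 y hy, h4 y hy x hx⟩, h2 y hy⟩))
  have h6 := fun x hx y hy => typ _ (h5 x hx) (h3 x hx) _ (h5 y hy) (h3 y hy) (h4 x hx y hy)
  have h7 : (∀ x hx, In 47 (c x hx)) ∨ ∀ x hx, In 61 (c x hx) := by
    by_contra! h8
    obtain ⟨⟨x, hx, h9⟩, y, hy, h10⟩ := h8
    exact (h6 x hx y hy).1.elim h9 h10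
  have h8 : (∀ x hx, In 31 (c x hx)) ∨ ∀ x hx, In 55 (c x hx) := by
    by_contra! h8
    obtain ⟨⟨x, hx, h9⟩, y, hy, h10⟩ := h8
    exact (h6 x hx y hy).2.elim h9 h10
  rcases h7 with a | a <;> rcases h8 with b | b
  · exact ⟨0, fun x hx => ⟨_, (typ' _ (h5 x hx)).1 (a x hx) (b x hx), h2 x hx⟩⟩
  · exact ⟨2, fun x hx => ⟨_, (typ' _ (h5 x hx)).2.2.1 (a x hx) (b x hx), h2 x hx⟩⟩
  · exact ⟨3, fun x hx => ⟨_, (typ' _ (h5 x hx)).2.2.2 (a x hx) (b x hx), h2 x hx⟩⟩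
  · exact ⟨1, fun x hx => ⟨_, (typ' _ (h5 x hx)).2.1 (a x hx) (b x hx), h2 x hx⟩⟩

theorem mp_S (e : Mp φ g InS InT) : Mp φ g InS InS := fun x hx => by
  obtain ⟨a, ha, hb⟩ := S_AB x hx
  obtain ⟨i, hi⟩ := h.img_E (i := 0) fun x hx => e x (E_S _ x hx).1
  obtain ⟨j, hj⟩ := h.img_E (i := 1) fun x hx => e x (E_S _ x hx).1
  obtain ⟨a', h1, h2⟩ := hi a ha
  obtain ⟨b', h3, h4⟩ := hj _ hb
  exact ⟨a' * b', S0.mul_mem (E_S _ _ h1).1 (E_S _ _ h3).1, by simpa using h2.mul h4⟩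

theorem pow_mem (e : Mp φ g InS InS) : g * (g * (g * g)) ∈ T0.map φ := by
  choose f hf using fun i => h.img_E (i := i) fun x hx =>
    (e x (E_S _ x hx).1).imp fun y hy => ⟨S_T y hy.1, hy.2⟩
  have e1 : ![f 0, f 1, f 2, f 3] = f := by ext i; fin_cases i <;> rfl
  have h1 := four (f 0) (f 1) (f 2) (f 3)
  rw [e1] at h1
  have h2 := h1 (fun i j hij => by
    by_contra hne
    refine E_ncomm i j hne fun u hu v hv => ?_
    obtain ⟨u', a, b⟩ := hf i u hu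
    obtain ⟨v', c, d⟩ := hf j v hv
    exact (h.comm b d).1 (E_comm _ _ a _ (hij ▸ c))) fun i j hij => by
    by_contra hne
    refine npar i j hne fun u hu hu' s hs => ?_
    obtain ⟨u', a, b⟩ := hf i u hu
    obtain ⟨v', c, d⟩ := hf j u hu'
    obtain ⟨s', c', d'⟩ := e s hs
    obtain rfl := (h.eq_iff b d).2 rfl
    exact (h.comm b d').1 (par _ _ hij _ a c _ c')
  have h3 := ((hf 0).trans (hf _)).trans (hf _) |>.trans (hf _)
  rw [h2] at h3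
  obtain ⟨m, hm⟩ := h.nA (Mp.norm (A := E0 0) h3)
  have h4 := (e.trans e).trans e |>.trans e
  rw [← hm] at h4 ⊢
  obtain ⟨u, a, b⟩ := h4 b1 (by decide +kernel)
  obtain ⟨v, c, d⟩ := h4 b2 (by decide +kernel)
  exact ⟨m, nS m (h.eq_of b ▸ S_T _ a) (h.eq_of d ▸ S_T _ c), rfl⟩

theorem mem_T (e : Mp φ g InS InT) : ∃ s, InT s ∧ φ s = g := by
  have h1 : IsPGroup 2 (normalizer (S0.map φ : Set G)) := isPGroup_iff_forall_mem.2 fun x hx => by
    obtain ⟨k, hk⟩ := isPGroup_iff_forall_mem.1 h.syl.isPGroup _ (h.pow_mem (mp_of_norm hx))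
    exact ⟨2 + k, by rw [← hk, pow_add, pow_mul]; congr 1; simp [pow_succ, mul_assoc]⟩
  exact (h.syl.eq_of_le _ h1 (T_le fun g hg => Mp.norm (.self (S_conj g hg))) le_top).le
    (Mp.norm (A := S0) (h.mp_S e))

theorem le_T {X : Subgroup G} (hX : IsPGroup 2 X) (h1 : S0.map φ ≤ X) : X ≤ T0.map φ := by
  obtain ⟨g, -, hg⟩ := h.syl.exists_conj_le hX le_top
  have h2 : g ∈ T0.map φ := h.mem_T (mp_iff.1 ((conjS_mono h1).trans hg))
  exact (conjS_le_iff.1 hg).trans (conjS_eq_of_mem (inv_mem h2)).le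

theorem back {X : Subgroup G} (h1 : ∀ s, InS s → φ s ∈ X ∧ g * φ s * g⁻¹ ∈ X) :
    ∃ n ∈ X, ∃ s, InT s ∧ φ s = n * g := by
  have h2 : S0.map φ ≤ X := map_le_iff_le_comap.2 fun s hs => (h1 s hs).1
  obtain ⟨Y, hY, h3⟩ := exists_isSylowIn_ge h.pS h2
  obtain ⟨n, hn, h4⟩ := hY.exists_conj_le (isPGroup_conjS h.pS g)
    (conjS_le_iff_forall.2 fun _ ⟨s, hs, e⟩ => e ▸ (h1 s hs).2)
  exact ⟨n, hn, h.mem_T (mp_iff.1 ((conjS_mul _ _ _).le.trans (h4.trans (h.le_T hY.isPGroup h3))))⟩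

theorem nz : ¬ Cj φ z1 z := fun ⟨g, e⟩ => by
  obtain ⟨n, hn, s, hs, e1⟩ := h.back (X := centralizer {φ z}) (g := g) fun s hs =>
    ⟨cm_fix.1 (.of_eq (t_z s (S_T s hs)).1.symm), cm_fix.1 (e.cnj e (.of_eq (S_z s hs).1.symm))⟩
  exact (t_z s hs).2.1 (h.eq_of (e1 ▸ e.trans (cm_fix.2 hn)))

theorem nz' : ¬ Cj φ z2 z := fun e => h.nz ((Mc.cj (by decide +kernel)).trans e)

theorem conj_E (e : Mp φ g (InE i) (InE j)) : conjS g ((E0 i).map φ) = (E0 j).map φ :=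
  eq_of_le_of_card_ge (mp_iff.2 e) (by
    rw [card_conjS, card_map_of_injective h.inj, card_map_of_injective h.inj, card_E, card_E])

theorem wc (e : Mp φ g (InE i) (InE j)) : i = j ∨ (2 ≤ i ∧ 2 ≤ j) := by
  have h1 : ∀ i s, InS s → φ s ∈ normalizer ((E0 i).map φ : Set G) := fun i s hs =>
    Mp.norm (.self fun x hx => E_conj i x hx s hs)
  obtain ⟨n, hn, s, hs, e1⟩ := h.back (X := normalizer ((E0 j).map φ : Set G)) (g := g) fun s hs =>
    ⟨h1 j s hs, by rw [← h.conj_E e, ← conjS_normalizer, conj_mem_conjS]; exact h1 i s hs⟩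
  refine wcl s hs i j fun x hx => ?_
  obtain ⟨y, a, b⟩ := e.trans (mp_of_norm hn) x hx
  exact h.eq_of (e1 ▸ b) ▸ a

theorem wcB (e : Mp φ g (InE 1) InT) : Mp φ g (InE 1) (InE 1) := by
  obtain ⟨j, hj⟩ := h.img_E e
  rcases h.wc hj with rfl | ⟨a, -⟩
  · exact hj
  · exact absurd a (by decide)

/-- adjusting by `t` -/
theorem wcC (hi : 2 ≤ i) (e : Mp φ g (InE i) InT) :
    Mp φ g (InE i) (InE i) ∨ Mp φ (φ t * g) (InE i) (InE i) := by
  obtain ⟨j, hj⟩ := h.img_E e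
  by_cases hij : j = i
  · exact .inl (hij ▸ hj)
  · have h1 := ((h.wc hj).resolve_left (Ne.symm hij)).2
    have h2 : ![0, 1, 3, 2] j = i :=
      (by decide : ∀ i j : Fin 4, 2 ≤ i → 2 ≤ j → j ≠ i → ![0, 1, 3, 2] j = i) i j hi h1 hij
    exact .inr (h2 ▸ hj.trans (.self (t_E j)))

theorem ext {Y : Subgroup TM} (hY : IsSylowIn 2 (Y.map φ) (centralizer {φ y})) (e : Cj φ u y) :
    ∃ g, Cm φ g u y ∧ ∀ p, InT p → p * u = u * p → ∃ q ∈ Y, Cm φ g p q := by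
  obtain ⟨k, e⟩ := e
  obtain ⟨n, hn, h1⟩ := hY.exists_conj_le (Q := conjS k (T0.map φ ⊓ centralizer {φ u}))
    (isPGroup_conjS (h.syl.isPGroup.to_le inf_le_left) k) (conjS_le_iff_forall.2 fun x hx =>
      cm_fix.1 (e.cnj e (cm_fix.2 hx.2)))
  rw [← conjS_mul] at h1
  exact ⟨n * k, e.trans (cm_fix.2 hn), fun p hp hc => conjS_le_iff_forall.1 h1 _
    ⟨⟨p, hp, rfl⟩, cm_fix.1 (.of_eq (by rw [hc, mul_inv_cancel_right]))⟩⟩

theorem ext_z (e : Cj φ u z) :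
    ∃ g, Cm φ g u z ∧ ∀ p, InT p → p * u = u * p → ∃ q, InT q ∧ Cm φ g p q :=
  h.ext (h.syl.mono (map_le_iff_le_comap.2 fun s hs => cm_fix.1 (.of_eq (t_z s hs).1.symm))
    le_top) e

theorem sylS {X : Subgroup G} (h1 : S0.map φ ≤ X) (h2 : X ≤ centralizer {φ z1}) :
    IsSylowIn 2 (S0.map φ) X :=
  ⟨h1, h.pS, fun Y hY h3 h4 => le_antisymm (fun x hx => by
    obtain ⟨s, hs, rfl⟩ := h.le_T hY h3 hx
    exact ⟨s, (t_z s hs).2.2.2.1 (h.eq_of (cm_fix.2 (h2 (h4 hx)))), rfl⟩) h3⟩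

theorem ext_z1 (e : Cj φ u z1) :
    ∃ g, Cm φ g u z1 ∧ ∀ p, InT p → p * u = u * p → ∃ q, InS q ∧ Cm φ g p q :=
  h.ext (h.sylS (map_le_iff_le_comap.2 fun s hs => cm_fix.1 (.of_eq (S_z s hs).1.symm)) le_rfl) e

omit h in
theorem mem_cZ : g ∈ centralizer (Z0.map φ : Set G) ↔ Cm φ g z1 z1 ∧ Cm φ g z2 z2 := by
  refine ⟨fun e => ⟨cm_fix.2 (centralizer_le ?_ e), cm_fix.2 (centralizer_le ?_ e)⟩,
    fun ⟨e1, e2⟩ => ?_⟩
  · exact Set.singleton_subset_iff.2 ⟨z1, (inZ _).2 (by simp), rfl⟩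
  · exact Set.singleton_subset_iff.2 ⟨z2, (inZ _).2 (by simp), rfl⟩
  · rintro _ ⟨x, hx, rfl⟩
    have : Cm φ g x x := by
      rcases (inZ x).1 hx with rfl | rfl | rfl | rfl
      exacts [.one, e1, e2, (show z1 * z2 = z by decide +kernel) ▸ e1.mul e2]
    exact (mem_centralizer_singleton_iff.1 (cm_fix.1 this)).symm

theorem cZ : centralizer (Z0.map φ : Set G) = S0.map φ := by
  set C := centralizer (Z0.map φ : Set G) with hC
  have h1 : S0.map φ ≤ C := map_le_iff_le_comap.2 fun s hs =>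
    mem_cZ.2 ⟨.of_eq (S_z s hs).1.symm, .of_eq (S_z s hs).2.symm⟩
  have hS := h.sylS h1 fun x hx => cm_fix.1 (mem_cZ.1 hx).1
  have hc : IsCharP 2 C := h.chr.of_normal (centralizer_le_normalizer _)
    (normalizer_le_normalizer_centralizer _)
  have h2 : pResOf 2 C ⊓ S0.map φ ≤ Z0.map φ := by
    have h3 := Transfer.pResidual_inf_sylow_le hS.toSylow (K := (Z0.map φ).subgroupOf C) ?_
    · intro x hx
      exact h3 (show (⟨x, h1 hx.2⟩ : C) ∈ _ from ⟨(pResOf_subgroupOf C).le hx.1, hx.2⟩)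
    rintro ⟨_, hx0⟩ ⟨-, x, hx, rfl⟩ ⟨g, hg⟩ - ⟨y, hy, e⟩
    have e0 : Cm φ g x y := e
    have h4 := centralizer_le_normalizer (Z0.map φ : Set G)
    obtain ⟨n, ⟨hn, -, hn'⟩, s, hs, e1⟩ := h.back (X := C ⊓ stb (Z0.map φ) (φ y)) (g := g) fun s hs => by
      have h5 : φ s ∈ C := h1 ⟨s, hs, rfl⟩
      have h6 := mul_mem (mul_mem hg h5) (inv_mem hg)
      refine ⟨⟨h5, h4 h5, _, (S_comm s hs y hy).1, by simp⟩, h6, h4 h6, ?_⟩
      convert conj_mem_of_mem_normalizer (h4 hg) (mem_map_of_mem φ (S_comm s hs x hx).1) using 1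
      rw [e0]; simp only [map_mul, map_inv]; group
    have h5 := (t_z s hs).2.2.2.1 (h.eq_of (e1 ▸ (mem_cZ.1 (mul_mem hn hg)).1))
    change (φ x)⁻¹ * (g * φ x * g⁻¹) ∈ Z0.map φ
    convert mul_mem (mem_map_of_mem φ (S_comm s h5 x hx).1) (inv_mem hn') using 1
    rw [e0]; simp only [map_mul, map_inv, e1]; group
  exact (hS.eq_of_le _ (hc.isPGroup_of_commutator_le le_rfl ((le_inf
    (commutator_le_right_of_le_normalizer ((pCoreOf_le C).trans (le_normalizer_pResOf C)))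
    ((commutator_le_left_of_le_normalizer ((pResOf_le C).trans (le_normalizer_pCoreOf C))).trans
      hS.pCoreOf_le)).trans h2) (pResOf_le C)) h1 le_rfl)

theorem mem_S (e1 : Cm φ g z1 z1) (e2 : Cm φ g z2 z2) : ∃ s, InS s ∧ φ s = g :=
  h.cZ.le (mem_cZ.2 ⟨e1, e2⟩)

theorem nZ (e : Mp φ g InZ InZ) : ∃ s, InT s ∧ φ s = g := by
  have h1 := normalizer_le_normalizer_centralizer _ (Mp.norm (A := Z0) e)
  rw [h.cZ] at h1
  exact h.mem_T fun x hx => (mp_of_norm h1 x hx).imp fun y hy => ⟨S_T y hy.1, hy.2⟩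

theorem ctrlB (hx : InE 1 x) (hy : InE 1 y) (e : Cj φ x y) :
    ∃ g, Cm φ g x y ∧ Mp φ g (InE 1) (InE 1) := by
  obtain ⟨g, e⟩ := e
  have pB : IsPGroup 2 ((E0 1).map φ) := h.pS.to_le (map_mono fun x hx => (E_S 1 x hx).1)
  have h1 : ∀ y, InE 1 y → (E0 1).map φ ≤ centralizer {φ y} := fun y hy =>
    map_le_iff_le_comap.2 fun s hs => cm_fix.1 (.of_eq (by
      rw [E_comm 1 s hs y hy, mul_inv_cancel_right]))
  obtain ⟨Y, hY, h2⟩ := exists_isSylowIn_ge pB (h1 y hy)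
  obtain ⟨n, hn, h3⟩ := hY.exists_conj_le (isPGroup_conjS pB g) (conjS_le_iff_forall.2 fun w hw =>
    cm_fix.1 (e.cnj e (cm_fix.2 (h1 x hx hw))))
  obtain ⟨k, -, h4⟩ := h.syl.exists_conj_le hY.isPGroup le_top
  have h5 := Mp.norm (A := E0 1) (h.wcB (mp_iff.1 ((conjS_mono h2).trans h4)))
  have h6 := Mp.norm (A := E0 1) (h.wcB (g := k * (n * g)) (mp_iff.1 ((conjS_mul _ _ _).le.trans
    ((conjS_mono ((conjS_mul _ _ _).le.trans h3)).trans h4))))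
  exact ⟨n * g, e.trans (cm_fix.2 hn), mp_of_norm ((mul_mem_cancel_left h5).1 h6)⟩

theorem thompson (h1 : u * u = 1) (h2 : u ≠ 1) : ∃ g v, Cm φ g u v ∧
    (Mc v z1 ∨ Mc v z ∨ Mc v (b1 * b2)) := by
  have h3 : (Q0.map φ).relIndex (T0.map φ) = 2 := by
    rw [relIndex_map_map_of_injective _ _ h.inj]
    have := PLocal.card_eq_relIndex_mul Q0 T0
    rw [inf_of_le_left (show Q0 ≤ T0 from fun x hx => hx.1), card_T, card_Q] at this
    omega
  obtain ⟨k, ⟨v, hv, e⟩, -⟩ := Transfer.thompson_transfer_extremal h.n2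
    (by simpa using h.syl.not_dvd_relIndex) h3 (u := φ u) (by rw [← map_mul, h1, map_one])
    IsPGroup.of_bot bot_le
  have e' : Cm φ k⁻¹ u v := by simpa [Cm] using e
  exact ⟨_, v, e', Q_cls v hv ((h.sq e').2 h1) fun a => h2 ((h.ne_one e').1 a)⟩

theorem cls (h1 : u * u = 1) (h2 : u ≠ 1) : Cj φ u z1 ∨ Cj φ u z ∨ Cj φ u (b1 * b2) := by
  obtain ⟨g, v, e, a | a | a⟩ := h.thompson h1 h2
  exacts [.inl (e.cj.trans a.cj), .inr (.inl (e.cj.trans a.cj)), .inr (.inr (e.cj.trans a.cj))]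

end Hyp

end CfsgLib.QT1.Wr
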